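import Cfsg.Prelude.Def_RootSubgroups

/-!
Rank one pairs: the action of `⟨A, B⟩` on its unipotent subgroups.
-/

set_option autoImplicit false

open Cfsg

namespace CfsgLib.RankOne

variable {G : Type*} [Group G] {A B C D : Subgroup G}

lemma mem_conjBy {g y : G} : y ∈ conjBy A g ↔ g⁻¹ * y * g ∈ A := by
  constructor
  · rintro ⟨x, hx, rfl⟩; simpa [mul_assoc] using hx
  · exact fun h => ⟨_, h, by simp [mul_assoc]⟩

lemma conj_mem_conjBy {g x : G} (hx : x ∈ A) : g * x * g⁻¹ ∈ conjBy A g := ⟨x, hx, rfl⟩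

lemma conjBy_one (A : Subgroup G) : conjBy A 1 = A := by
  ext y; rw [mem_conjBy]; simp

lemma conjBy_conjBy (A : Subgroup G) (g k : G) : conjBy (conjBy A g) k = conjBy A (k * g) := by
  ext y; simp only [mem_conjBy]; constructor <;> intro h <;> simpa [mul_assoc] using h

lemma conjBy_inv_conjBy (A : Subgroup G) (g : G) : conjBy (conjBy A g) g⁻¹ = A := by
  rw [conjBy_conjBy, inv_mul_cancel, conjBy_one]

lemma conjBy_eq_iff {g : G} : conjBy A g = B ↔ A = conjBy B g⁻¹ := by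
  constructor
  · rintro rfl; rw [conjBy_inv_conjBy]
  · rintro rfl; rw [conjBy_conjBy, mul_inv_cancel, conjBy_one]

lemma conjBy_inj {g : G} : conjBy A g = conjBy B g ↔ A = B :=
  ⟨fun h => by rw [← conjBy_inv_conjBy A g, h, conjBy_inv_conjBy], fun h => h ▸ rfl⟩

lemma conjBy_eq_self_iff {g : G} : conjBy A g = A ↔ g ∈ Subgroup.normalizer (A : Set G) := by
  rw [Subgroup.mem_normalizer_iff]
  constructor
  · intro h y
    conv_rhs => rw [← h, mem_conjBy]
    simp [mul_assoc]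
  · intro h
    ext y
    rw [mem_conjBy, h]
    simp [mul_assoc]

lemma conjBy_eq_self_of_mem {g : G} (hg : g ∈ A) : conjBy A g = A :=
  conjBy_eq_self_iff.2 (Subgroup.le_normalizer hg)

lemma conjBy_sup (A B : Subgroup G) (g : G) : conjBy (A ⊔ B) g = conjBy A g ⊔ conjBy B g :=
  Subgroup.map_sup _ _ _

section RankOne

variable (h : IsRankOnePair A B)
include h

/-- No non-identity element of `A` normalizes `B`. -/
lemma eq_one_of_normalizes {a : G} (ha : a ∈ A) (hn : conjBy B a = B) : a = 1 := by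
  by_contra h1
  obtain ⟨b, hb, -, he⟩ := h.cond_left a ha h1
  rw [conjBy_eq_iff, inv_inv] at he
  apply h.ne
  rw [he]
  conv_lhs => rw [← hn, conjBy_inv_conjBy]
  exact conjBy_eq_self_of_mem hb

lemma inf_normalizer : A ⊓ Subgroup.normalizer (B : Set G) = ⊥ :=
  (Subgroup.eq_bot_iff_forall _).2 fun _ hx => eq_one_of_normalizes h hx.1 (conjBy_eq_self_iff.2 hx.2)

lemma inf_eq_bot : A ⊓ B = ⊥ :=
  (Subgroup.eq_bot_iff_forall _).2 fun _ hx => eq_one_of_normalizes h hx.1 (conjBy_eq_self_of_mem hx.2)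

lemma conj_injective {a a' : G} (ha : a ∈ A) (ha' : a' ∈ A) (he : conjBy B a = conjBy B a') : a = a' := by
  have : conjBy B (a'⁻¹ * a) = B := by rw [← conjBy_conjBy, he, conjBy_inv_conjBy]
  have h1 := eq_one_of_normalizes h (A.mul_mem (A.inv_mem ha') ha) this
  rw [inv_mul_eq_one] at h1
  exact h1.symm

lemma conjBy_mem_form {x : G} (hx : x ∈ A ⊔ B) :
    ∀ C : Subgroup G, (C = A ∨ ∃ a ∈ A, C = conjBy B a) →
      (conjBy C x = A ∨ ∃ a ∈ A, conjBy C x = conjBy B a) := by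
  have hB : ∀ b ∈ B, conjBy A b = A ∨ ∃ a ∈ A, conjBy A b = conjBy B a := by
    intro b hb
    by_cases hb1 : b = 1
    · exact Or.inl (hb1 ▸ conjBy_one A)
    obtain ⟨a, ha, -, he⟩ := h.cond_right b⁻¹ (B.inv_mem hb) (inv_ne_one.2 hb1)
    rw [inv_inv] at he
    exact Or.inr ⟨a⁻¹, A.inv_mem ha, he.symm⟩
  have hA : ∀ a ∈ A, ∀ C : Subgroup G, (C = A ∨ ∃ a' ∈ A, C = conjBy B a') →
      (conjBy C a = A ∨ ∃ a' ∈ A, conjBy C a = conjBy B a') := by
    rintro a ha C (rfl | ⟨a', ha', rfl⟩)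
    · exact Or.inl (conjBy_eq_self_of_mem ha)
    · exact Or.inr ⟨a * a', A.mul_mem ha ha', conjBy_conjBy _ _ _⟩
  have hb' : ∀ b ∈ B, ∀ C : Subgroup G, (C = A ∨ ∃ a ∈ A, C = conjBy B a) →
      (conjBy C b = A ∨ ∃ a ∈ A, conjBy C b = conjBy B a) := by
    rintro b hb C (rfl | ⟨a, ha, rfl⟩)
    · exact hB b hb
    by_cases ha1 : a = 1
    · subst ha1
      rw [conjBy_one, conjBy_eq_self_of_mem hb]
      exact Or.inr ⟨1, A.one_mem, (conjBy_one B).symm⟩
    obtain ⟨b', hb'', -, he⟩ := h.cond_left a⁻¹ (A.inv_mem ha) (inv_ne_one.2 ha1)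
    rw [inv_inv] at he
    rw [← he, conjBy_conjBy]
    exact hB _ (B.mul_mem hb (B.inv_mem hb''))
  rw [Subgroup.sup_eq_closure] at hx
  induction hx using Subgroup.closure_induction'' with
  | mem y hy => exact hy.elim (fun hy => hA y hy) (fun hy => hb' y hy)
  | inv_mem y hy => exact hy.elim (fun hy => hA _ (A.inv_mem hy)) (fun hy => hb' _ (B.inv_mem hy))
  | one => intro C hC; rwa [conjBy_one]
  | mul y z _ _ hy hz =>
    intro C hC
    rw [← conjBy_conjBy]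
    exact hy _ (hz C hC)

omit h in
lemma left_mem_unipotent : A ∈ unipotentSubgroups A B := ⟨1, one_mem _, (conjBy_one A).symm⟩

lemma nonidentity_left : ∃ a ∈ A, a ≠ 1 := by
  by_contra hne
  push Not at hne
  have hA : A = ⊥ := (Subgroup.eq_bot_iff_forall _).2 hne
  have : B ≠ ⊥ := fun hB => h.ne (hA.trans hB.symm)
  obtain ⟨⟨b, hb⟩, hb1⟩ := Subgroup.ne_bot_iff_exists_ne_one.1 this
  obtain ⟨a, ha, ha1, -⟩ := h.cond_right b hb fun e => hb1 (Subtype.ext e)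
  exact ha1 (hne a ha)

lemma right_mem_unipotent : B ∈ unipotentSubgroups A B := by
  obtain ⟨a, ha, ha1⟩ := nonidentity_left h
  obtain ⟨b, hb, -, he⟩ := h.cond_left a ha ha1
  refine ⟨a * b⁻¹, mul_mem (Subgroup.mem_sup_left ha) (inv_mem (Subgroup.mem_sup_right hb)), ?_⟩
  rw [← conjBy_conjBy, he, conjBy_conjBy, mul_inv_cancel, conjBy_one]

omit h in
lemma conjBy_mem_unipotent (hC : C ∈ unipotentSubgroups A B) {x : G} (hx : x ∈ A ⊔ B) :
    conjBy C x ∈ unipotentSubgroups A B := by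
  obtain ⟨y, hy, rfl⟩ := hC
  exact ⟨x * y, mul_mem hx hy, conjBy_conjBy _ _ _⟩

lemma mem_unipotent : C ∈ unipotentSubgroups A B ↔ C = A ∨ ∃ a ∈ A, C = conjBy B a := by
  constructor
  · rintro ⟨x, hx, rfl⟩; exact conjBy_mem_form h hx A (Or.inl rfl)
  · rintro (rfl | ⟨a, ha, rfl⟩)
    · exact left_mem_unipotent
    · exact conjBy_mem_unipotent (right_mem_unipotent h) (Subgroup.mem_sup_left ha)

lemma unipotent_symm : unipotentSubgroups B A = unipotentSubgroups A B := by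
  ext C
  obtain ⟨x, hx, hBx⟩ := right_mem_unipotent h
  constructor
  · rintro ⟨y, hy, rfl⟩
    rw [sup_comm] at hy
    exact conjBy_mem_unipotent (right_mem_unipotent h) hy
  · rintro ⟨y, hy, rfl⟩
    refine ⟨y * x⁻¹, by rw [sup_comm]; exact mul_mem hy (inv_mem hx), ?_⟩
    rw [hBx, conjBy_conjBy, inv_mul_cancel_right]

/-- `A` is transitive on the other unipotent subgroups, regularly. -/
lemma exists_unique_conj (hC : C ∈ unipotentSubgroups A B) (hD : D ∈ unipotentSubgroups A B)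
    (hCA : C ≠ A) (hDA : D ≠ A) : ∃! a : G, a ∈ A ∧ conjBy C a = D := by
  obtain ⟨a, ha, rfl⟩ := ((mem_unipotent h).1 hC).resolve_left hCA
  obtain ⟨a', ha', rfl⟩ := ((mem_unipotent h).1 hD).resolve_left hDA
  refine ⟨a' * a⁻¹, ⟨A.mul_mem ha' (A.inv_mem ha), by rw [conjBy_conjBy, inv_mul_cancel_right]⟩, ?_⟩
  rintro y ⟨hy, he⟩
  rw [conjBy_conjBy] at he
  exact eq_mul_inv_of_mul_eq (conj_injective h (A.mul_mem hy ha) ha' he)

/-- A non-identity element of `A` fixes only `A`. -/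
lemma eq_left_of_fixed {a : G} (ha : a ∈ A) (ha1 : a ≠ 1) (hC : C ∈ unipotentSubgroups A B)
    (hfix : conjBy C a = C) : C = A := by
  by_contra hne
  exact ha1 ((exists_unique_conj h hC hC hne hne).unique ⟨ha, hfix⟩ ⟨A.one_mem, conjBy_one C⟩)

/-- A non-identity element of any unipotent subgroup fixes only that one. -/
lemma eq_of_fixed {c : G} (hc : c ∈ D) (hc1 : c ≠ 1) (hD : D ∈ unipotentSubgroups A B)
    (hC : C ∈ unipotentSubgroups A B) (hfix : conjBy C c = C) : C = D := by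
  obtain ⟨x, hx, rfl⟩ := hD
  rw [mem_conjBy] at hc
  have h1 : x⁻¹ * c * x ≠ 1 := fun e => hc1 <| by
    calc c = x * (x⁻¹ * c * x) * x⁻¹ := by group
      _ = 1 := by rw [e]; group
  have := eq_left_of_fixed h hc h1 (conjBy_mem_unipotent hC (inv_mem hx)) <| by
    rw [conjBy_conjBy, mul_assoc, mul_assoc, mul_inv_cancel, mul_one, ← conjBy_conjBy, hfix]
  rw [conjBy_eq_iff, inv_inv] at this
  exact this

/-- Different unipotent subgroups contain no commuting non-identity elements. -/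
lemma eq_of_commute {c d : G} (hc : c ∈ C) (hd : d ∈ D) (hc1 : c ≠ 1) (hd1 : d ≠ 1)
    (hC : C ∈ unipotentSubgroups A B) (hD : D ∈ unipotentSubgroups A B) (hcd : c * d = d * c) :
    C = D := by
  have hCle : ∀ {E : Subgroup G}, E ∈ unipotentSubgroups A B → E ≤ A ⊔ B := by
    rintro E ⟨x, hx, rfl⟩ y hy
    obtain ⟨a, ha, rfl⟩ := hy
    exact mul_mem (mul_mem hx (Subgroup.mem_sup_left ha)) (inv_mem hx)
  refine eq_of_fixed h hd hd1 hD hC ?_
  refine eq_of_fixed h hc hc1 hC (conjBy_mem_unipotent hC (hCle hD hd)) ?_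
  rw [conjBy_conjBy, hcd, ← conjBy_conjBy, conjBy_eq_self_of_mem hc]

omit h in
lemma le_sup_of_mem_unipotent (hC : C ∈ unipotentSubgroups A B) : C ≤ A ⊔ B := by
  obtain ⟨x, hx, rfl⟩ := hC
  rintro _ ⟨a, ha, rfl⟩
  exact mul_mem (mul_mem hx (Subgroup.mem_sup_left ha)) (inv_mem hx)

lemma exists_three : ∃ C₁ ∈ unipotentSubgroups A B, ∃ C₂ ∈ unipotentSubgroups A B,
    ∃ C₃ ∈ unipotentSubgroups A B, C₁ ≠ C₂ ∧ C₁ ≠ C₃ ∧ C₂ ≠ C₃ := by
  obtain ⟨a, ha, ha1⟩ := nonidentity_left h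
  refine ⟨A, left_mem_unipotent, B, right_mem_unipotent h, conjBy B a,
    conjBy_mem_unipotent (right_mem_unipotent h) (Subgroup.mem_sup_left ha), h.ne, ?_, ?_⟩
  · intro e
    apply h.ne
    rw [eq_comm, conjBy_eq_iff] at e
    rw [e, conjBy_eq_self_of_mem (A.inv_mem ha)]
  · exact fun e => ha1 (eq_one_of_normalizes h ha e.symm)

lemma two_transitive (C₁ C₂ D₁ D₂ : Subgroup G) (hC₁ : C₁ ∈ unipotentSubgroups A B)
    (hC₂ : C₂ ∈ unipotentSubgroups A B) (hD₁ : D₁ ∈ unipotentSubgroups A B)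
    (hD₂ : D₂ ∈ unipotentSubgroups A B) (hC : C₁ ≠ C₂) (hD : D₁ ≠ D₂) :
    ∃ x ∈ A ⊔ B, conjBy C₁ x = D₁ ∧ conjBy C₂ x = D₂ := by
  obtain ⟨x, hx, rfl⟩ := hC₁
  obtain ⟨y, hy, rfl⟩ := hD₁
  have h1 : conjBy C₂ x⁻¹ ≠ A := fun e => hC (by rw [conjBy_eq_iff, inv_inv] at e; exact e.symm)
  have h2 : conjBy D₂ y⁻¹ ≠ A := fun e => hD (by rw [conjBy_eq_iff, inv_inv] at e; exact e.symm)
  obtain ⟨a, ⟨ha, he⟩, -⟩ := exists_unique_conj h (conjBy_mem_unipotent hC₂ (inv_mem hx))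
    (conjBy_mem_unipotent hD₂ (inv_mem hy)) h1 h2
  refine ⟨y * a * x⁻¹, mul_mem (mul_mem hy (Subgroup.mem_sup_left ha)) (inv_mem hx), ?_, ?_⟩
  · rw [← conjBy_conjBy, conjBy_inv_conjBy, ← conjBy_conjBy, conjBy_eq_self_of_mem ha]
  · rw [← conjBy_conjBy, ← conjBy_conjBy, he, conjBy_conjBy, mul_inv_cancel, conjBy_one]

end RankOne

lemma isRankOnePair_conj (h : IsRankOnePair A B) (g : G) :
    IsRankOnePair (conjBy A g) (conjBy B g) := by
  have hn : ∀ {H : Subgroup G}, Group.IsNilpotent H → Group.IsNilpotent (conjBy H g) := fun {H} hH =>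
    haveI := hH
    Group.nilpotent_of_mulEquiv (H.equivMapOfInjective _ (MulEquiv.injective _))
  have hc : ∀ {X Y : Subgroup G}, RankOneCondition X Y →
      RankOneCondition (conjBy X g) (conjBy Y g) := by
    rintro X Y hXY _ ⟨a, ha, rfl⟩ ha1
    obtain ⟨b, hb, hb1, he⟩ := hXY a ha (fun e => ha1 (by simp [e]))
    refine ⟨g * b * g⁻¹, conj_mem_conjBy hb, fun e => hb1 ?_, ?_⟩
    · calc b = g⁻¹ * (g * b * g⁻¹) * g := by group
        _ = 1 := by rw [e]; group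
    · show conjBy (conjBy X g) (g * b * g⁻¹)⁻¹ = conjBy (conjBy Y g) (g * a * g⁻¹)⁻¹
      rw [conjBy_conjBy, conjBy_conjBy]
      have e1 : ∀ z : G, (g * z * g⁻¹)⁻¹ * g = g * z⁻¹ := fun z => by group
      rw [e1, e1, ← conjBy_conjBy, he, conjBy_conjBy]
  exact ⟨fun e => h.ne (conjBy_inj.1 e), hn h.nilpotent_left, hn h.nilpotent_right, hc h.cond_left,
    hc h.cond_right⟩

end CfsgLib.RankOne
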